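import Cfsg.Agent.LV.F4.Fac
import Cfsg.Agent.LV.One.RegX

/-!
# PQ, `F₄`: finite facts on the regular classes (helper90)

`val7` : the valuations of the orders of the tori; `top7` : the values at the seven regular classes.
-/

set_option autoImplicit false
set_option linter.unusedSectionVars false
set_option maxRecDepth 100000

namespace Cfsg.Agent.PQ.Sm

open CoxeterSystem Cfsg Cfsg.Lie Cfsg.Agent.KZ.DatX Cfsg.Agent.KZ.McX Cfsg.Agent.LV.T Cfsg.Agent.Tits.Core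
  Cfsg.Agent.Tits.Exchange Cfsg.Agent.LV.F4

/-- the cyclotomic polynomials -/
def cy7 : Fin 7 → List ℤ := ![[1, -1], [1, 1], [1, 1, 1], [1, -1, 1], [1, 0, 1], [1, 0, 0, 0, 1], [1, 0, -1, 0, 1]]

/-- the regular classes -/
def t7 : Fin 7 → ℕ := ![0, 24, 23, 16, 21, 15, 11]

/-- the exponents -/
def ex7 (i : ℕ) (d : Fin 7) : ℕ :=
  ([4000000, 3100000, 3100000, 2010000, 2000100, 2200000, 2010000, 1101000, 1101000, 1110000, 1110000, 1, 2200000, 1100100,
    1100100, 10, 2000, 1300000, 1300000, 201000, 201000, 200, 200100, 20000, 400000].getD i 0) / 10 ^ (6 - d.1) % 10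

/-- the Bezout coefficients -/
def bz7 : Fin 7 → Fin 7 → List ℤ := ![
  ![[], [3], [4, 2], [0, 6], [3, 3], [3, 3, 3, 3], [0, 0, 6, 6]],
  ![[3], [], [0, -6], [4, -2], [3, -3], [3, -3, 3, -3], [0, 0, 6, -6]],
  ![[2], [6], [], [3, -3], [0, -6], [6, 0, -6, 6], [6, -3, -3, 3]],
  ![[6], [2], [3, 3], [], [0, 6], [6, 0, -6, -6], [6, 3, -3, -3]],
  ![[3], [3], [6, 6], [6, -6], [], [3, 0, -3], [4, 0, -2]],
  ![[3], [3], [0, -6], [0, 6], [3], [], [6, 0, -6]],
  ![[6], [6], [0, -3], [0, 3], [2], [0, 0, 6], []]]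

/-- the regular eigenvectors -/
def rg7 : Fin 7 → ℕ × ℤ × List ℤ := ![(13, 1, [1, 1, 1, 1]), (13, 12, [1, 1, 1, 1]), (13, 3, [1, 1, 1, 3]),
  (13, 10, [1, 1, 1, 1]), (13, 8, [1, 1, 4, 11]), (17, 2, [1, 3, 2, 4]), (13, 7, [1, 2, 1, 2])]

theorem t7_lt : ∀ d, t7 d < 25 := by decide

theorem bz_ck : ∀ a b, a ≠ b → ∃ n < 8,
    axpy 1 (mulL (bz7 a b) (cy7 a)) (mulL (bz7 b a) (cy7 b)) = 6 :: List.replicate n 0 := by decide +kernel

theorem ex_ck : ∀ i < 25, (List.finRange 7).foldr (fun a s => pwm (cy7 a) (ex7 i a) s) [1] = cpl (mW (nT.R.getD i []) 1) ∧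
    ∀ d, ex7 (t7 d) d ≤ ex7 i d → i = t7 d := by decide +kernel

theorem rg_ck : ∀ d, LV.One.regC chevF4 rowsF4 (nT.R.getD (t7 d) []) (rg7 d).1 (rg7 d).2.1 (rg7 d).2.2 = true ∧
    ((rg7 d).1 = 13 ∨ (rg7 d).1 = 17) := by decide +kernel

theorem dvd_six {l q : ℤ} {a b : Fin 7} (h : a ≠ b) (ha : l ∣ evL (cy7 a) q) (hb : l ∣ evL (cy7 b) q) : l ∣ 6 := by
  obtain ⟨n, -, e⟩ := bz_ck a b h
  have h1 : ∀ n, evL (List.replicate n 0) q = 0 := fun n => by
    induction n with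
    | zero => rfl
    | succ n ih => rw [List.replicate_succ, evL_cons, ih, mul_zero, add_zero]
  have h2 := congrArg (evL · q) e
  simp only [evL_axpy, evL_mulL, evL_cons, h1, mul_zero, add_zero, one_mul] at h2
  exact h2 ▸ dvd_add (ha.mul_left _) (hb.mul_left _)

theorem det_rep (q : ℤ) {i : ℕ} (hi : i < 25) :
    (q • ph (rep i) - 1).det.natAbs = ∏ a, (evL (cy7 a) q).natAbs ^ ex7 i a := by
  have h1 : ∀ L : List (Fin 7), (evL (L.foldr (fun a s => pwm (cy7 a) (ex7 i a) s) [1]) q).natAbs =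
      (L.map fun a => (evL (cy7 a) q).natAbs ^ ex7 i a).prod := fun L => by
    induction L with
    | nil => simp [evL]
    | cons a L ih => rw [List.foldr_cons, evL_pwm, Int.natAbs_mul, Int.natAbs_pow, ih, List.map_cons, List.prod_cons]
  rw [rep, ph_el, ← mul_one (List.prod _), ← mW_eq, ← evL_cpl, ← (ex_ck i hi).1, h1, Fin.prod_univ_def]

theorem val7 {l : ℕ} {q : ℤ} (h6 : ¬ l ∣ 6) {d : Fin 7} (hd : l ∣ (evL (cy7 d) q).natAbs) {e : Fin 7 → ℕ}
    (h0 : ∏ a, (evL (cy7 a) q).natAbs ^ e a ≠ 0) :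
    (∏ a, (evL (cy7 a) q).natAbs ^ e a).factorization l = e d * (evL (cy7 d) q).natAbs.factorization l := by
  rw [Nat.factorization_prod fun a ha => Finset.prod_ne_zero_iff.1 h0 a ha, Finsupp.finsetSum_apply,
    Finset.sum_eq_single d (fun a _ e => ?_) fun e => absurd (Finset.mem_univ _) e, Nat.factorization_pow]
  · rfl
  · rw [Nat.factorization_pow, Finsupp.smul_apply, Nat.factorization_eq_zero_of_not_dvd fun e' =>
      h6 (Int.natCast_dvd_natCast.1 (dvd_six e (Int.natCast_dvd.2 e') (Int.natCast_dvd.2 hd))), smul_zero]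

/-- the greatest common divisor of the values at the regular classes -/
noncomputable def g7 (x : List ℤ) : ℕ :=
  (List.finRange 7).foldr (fun d g => Nat.gcd (dotL (nT.B.getD (t7 d) []) x).natAbs g) 0

/-- the test at the leaves -/
noncomputable def pR (x : List ℤ) (_ : ℤ) : Bool := gN (g7 x) fun g => g == 0 || 864 % g == 0

theorem nT_fr : fp pR nT.bd nT.rw [] 0 = true := by decide +kernel

/-- **The values at the regular classes** -/
theorem top7 [Fintype W4] {y : W4 → ℂ} (h1 : Lv c4 1 Set.univ 1 y) (h2 : ∀ x u, y (x * u * x⁻¹) = y u)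
    {ν : ℝ} (hν : ν = (Fintype.card W4 : ℝ)⁻¹ * ∑ x, ‖y x‖ ^ 2) (h4 : ν ≤ 1) {l : ℕ} {d : Fin 7} (h0 : y (rep (t7 d)) ≠ 0)
    (h : ∀ d (m : ℤ), y (rep (t7 d)) = m → (l : ℤ) ∣ m) : l ∣ 864 := by
  classical
  have h5 : Lv c4 1 (sB nT.b) 1 y := sB_top ▸ h1
  have h6 : LV.F4.Inv nT.b y := fun x _ => h2 x
  have h7 : WJ c4 (sB nT.b) = ⊤ := (congrArg _ sB_top).trans (WJ_univ c4)
  obtain ⟨x, s, e1, -, -, e4⟩ := Nd.node nT_cl nT_la nT_fr (fun i _ => by rw [one_mul, mul_one]; rfl) h5 h6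
    (Nd.gs_top nT_cl nT_to h5 h6) (ν := ν) (by
      rw [hν, h7, Subgroup.card_top, Nat.card_eq_fintype_card, ← Finset.sum_subtype Finset.univ (by simp)
        fun x => ‖y (x * 1)‖ ^ 2]
      simp) h4
  have e6 : ∀ d, y (rep (t7 d)) = dotL (nT.B.getD (t7 d) []) x := fun d => by
    simpa only [mul_one, rep, getD_mv] using e4 _ (t7_lt d)
  have e7 : ∀ n : ℕ, n ∣ g7 x ↔ ∀ d, (n : ℤ) ∣ dotL (nT.B.getD (t7 d) []) x := fun n => by
    have e8 : ∀ L : List (Fin 7), n ∣ L.foldr (fun d g => Nat.gcd (dotL (nT.B.getD (t7 d) []) x).natAbs g) 0 ↔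
        ∀ d ∈ L, (n : ℤ) ∣ dotL (nT.B.getD (t7 d) []) x := fun L => by
      induction L with
      | nil => simp
      | cons a L ih => rw [List.foldr_cons, Nat.dvd_gcd_iff, ih, List.forall_mem_cons, Int.natCast_dvd]
    exact (e8 (List.finRange 7)).trans (by simp only [List.mem_finRange, true_imp_iff])
  simp only [pR, gN_eq, Bool.or_eq_true, beq_iff_eq] at e1
  refine ((e7 l).2 fun d => h d _ (e6 d)).trans (Nat.dvd_of_mod_eq_zero (e1.resolve_left fun e => h0 ?_))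
  rw [e6, zero_dvd_iff.1 ((e7 0).1 (dvd_of_eq e.symm) d), Int.cast_zero]

end Cfsg.Agent.PQ.Sm
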